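import Cfsg.Agent.Components.OrderP
import Cfsg.Agent.CoprimeAction.Hyperplane
import Cfsg.Agent.PGroup.ChermakDelgado
import Mathlib.GroupTheory.Abelianization.Defs

/-!
k-balance with solvable cores: the group generated by the `Δ(A₀) ∩ C(A₀)`, `A₀` of index at most `p` through `a`,
meets `C(e)` in the group generated by those `A₀` through `e`.
The pieces are closed under commutators, so one may induct along the derived series.
-/

set_option autoImplicit false

namespace CfsgLib.KBalance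

open scoped commutatorElement
open Cfsg (signalizerDelta centralizerPPrimeCore)

variable {G : Type*} [Group G] [Finite G] {p k : ℕ}

/-- The index set: subgroups of `A` through `a` of index at most `p`. -/
abbrev Idx (p : ℕ) (A : Subgroup G) (a : G) :=
  {A0 : Subgroup G // A0 ≤ A ∧ a ∈ A0 ∧ Nat.card ↥A ≤ p * Nat.card ↥A0}

/-- `Δ(A₀) ∩ C(A₀)`. -/
def piece (p : ℕ) (A0 : Subgroup G) : Subgroup G :=
  signalizerDelta p A0 ⊓ Subgroup.centralizer (A0 : Set G)

/-- The subgroup of `H` generated by its pieces. -/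
def gen (p : ℕ) (A : Subgroup G) (a : G) (H : Subgroup G) : Subgroup G :=
  ⨆ A0 : Idx p A a, H ⊓ piece p A0.1

omit [Finite G] in
theorem signalizerDelta_anti {D E : Subgroup G} (h : D ≤ E) : signalizerDelta p E ≤ signalizerDelta p D :=
  le_iInf fun d => iInf_le_of_le (⟨d.1, h d.2.1, d.2.2⟩ : {a : G // a ∈ E ∧ a ≠ 1}) le_rfl

omit [Finite G] in
theorem gen_le (A : Subgroup G) (a : G) (H : Subgroup G) : gen p A a H ≤ H := iSup_le fun _ => inf_le_left

omit [Finite G] in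
theorem le_normalizer_centralizer_of_le {A B : Subgroup G} [IsMulCommutative A] (h : B ≤ A) :
    A ≤ Subgroup.normalizer (Subgroup.centralizer (B : Set G) : Set G) := by
  have h1 : A ≤ Subgroup.centralizer (B : Set G) :=
    (Subgroup.le_centralizer_iff_isMulCommutative.2 ‹_›).trans (Subgroup.centralizer_le h)
  exact h1.trans Subgroup.le_normalizer

omit [Finite G] in
theorem le_normalizer_inf {A X Y : Subgroup G} (hX : A ≤ Subgroup.normalizer (X : Set G))
    (hY : A ≤ Subgroup.normalizer (Y : Set G)) : A ≤ Subgroup.normalizer ((X ⊓ Y : Subgroup G) : Set G) :=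
  Subgroup.le_normalizer_iff.2 fun a ha x hx =>
    ⟨(Subgroup.mem_normalizer_iff.1 (hX ha) x).1 hx.1, (Subgroup.mem_normalizer_iff.1 (hY ha) x).1 hx.2⟩

omit [Finite G] in
theorem le_normalizer_commutator_two {A X Y : Subgroup G} (hX : A ≤ Subgroup.normalizer (X : Set G))
    (hY : A ≤ Subgroup.normalizer (Y : Set G)) : A ≤ Subgroup.normalizer ((⁅X, Y⁆ : Subgroup G) : Set G) := by
  intro a ha
  rw [Subgroup.mem_normalizer_iff_map_conj_eq, Subgroup.map_commutator,
    Subgroup.mem_normalizer_iff_map_conj_eq.1 (hX ha), Subgroup.mem_normalizer_iff_map_conj_eq.1 (hY ha)]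

theorem le_normalizer_signalizerDelta {A D : Subgroup G} [IsMulCommutative A] (hD : D ≤ A) :
    A ≤ Subgroup.normalizer (signalizerDelta p D : Set G) := by
  rw [Subgroup.le_normalizer_iff]
  intro a ha x hx
  simp only [signalizerDelta, Subgroup.mem_iInf] at hx ⊢
  intro b
  have hab : a * (b : G) = b * a := congrArg (Subtype.val : ↥A → G) (mul_comm' (⟨a, ha⟩ : ↥A) ⟨b, hD b.2.1⟩)
  exact (Subgroup.mem_normalizer_iff.1 (CfsgLib.Components.centralizer_le_normalizer_centralizerPPrimeCore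
    (Subgroup.mem_centralizer_singleton_iff.2 hab)) x).1 (hx b)

theorem le_normalizer_piece {A A0 : Subgroup G} [IsMulCommutative A] (h : A0 ≤ A) :
    A ≤ Subgroup.normalizer (piece p A0 : Set G) :=
  le_normalizer_inf (le_normalizer_signalizerDelta h) (le_normalizer_centralizer_of_le h)

/-- The standing hypotheses. -/
structure Setting (p k : ℕ) (A : Subgroup G) : Prop where
  elem : Cfsg.IsElementaryAbelian p A
  rank : p ^ (k + 2) ≤ Nat.card ↥A
  pos : 1 ≤ k
  bal : ∀ D ≤ A, p ^ k ≤ Nat.card ↥D → ∀ b ∈ A, b ≠ 1 →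
    signalizerDelta p D ⊓ Subgroup.centralizer {b} ≤ centralizerPPrimeCore p b

variable {A : Subgroup G} (hS : Setting p k A)
include hS

omit [Finite G] in
theorem delta_le {D E : Subgroup G} (hD : D ≤ A) (hDk : p ^ k ≤ Nat.card ↥D) (hE : E ≤ A) :
    signalizerDelta p D ⊓ Subgroup.centralizer (E : Set G) ≤ signalizerDelta p E :=
  le_iInf fun b => le_trans (inf_le_inf_left _ (Subgroup.centralizer_le (Set.singleton_subset_iff.2 b.2.1)))
    (hS.bal D hD hDk b (hE b.2.1) b.2.2)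

variable [hp : Fact p.Prime]

theorem card_inf {A1 A2 : Subgroup G} (h1 : A1 ≤ A) (h2 : A2 ≤ A) (c1 : Nat.card ↥A ≤ p * Nat.card ↥A1)
    (c2 : Nat.card ↥A ≤ p * Nat.card ↥A2) : p ^ k ≤ Nat.card ↥(A1 ⊓ A2) := by
  have h := CfsgLib.PGroup.card_mul_card_le A1 A2
  have h' : Nat.card ↥(A1 ⊔ A2) ≤ Nat.card ↥A := Subgroup.card_le_of_le (sup_le h1 h2)
  have hA0 : 0 < Nat.card ↥A := Nat.card_pos
  have e : Nat.card ↥A * Nat.card ↥A ≤ Nat.card ↥A * (p ^ 2 * Nat.card ↥(A1 ⊓ A2)) :=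
    calc Nat.card ↥A * Nat.card ↥A ≤ (p * Nat.card ↥A1) * (p * Nat.card ↥A2) := Nat.mul_le_mul c1 c2
      _ = p ^ 2 * (Nat.card ↥A1 * Nat.card ↥A2) := by ring
      _ ≤ p ^ 2 * (Nat.card ↥A * Nat.card ↥(A1 ⊓ A2)) := Nat.mul_le_mul_left _ (h.trans (Nat.mul_le_mul_right _ h'))
      _ = Nat.card ↥A * (p ^ 2 * Nat.card ↥(A1 ⊓ A2)) := by ring
  have e2 := hS.rank.trans (Nat.le_of_mul_le_mul_left e hA0)
  rw [pow_add, mul_comm (p ^ k)] at e2
  exact Nat.le_of_mul_le_mul_left e2 (pow_pos hp.out.pos 2)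

theorem card_large {A0 : Subgroup G} (h : A0 ≤ A) (c : Nat.card ↥A ≤ p * Nat.card ↥A0) :
    p ^ k ≤ Nat.card ↥A0 :=
  (inf_idem A0).symm ▸ card_inf hS h h c c

theorem coprime_delta {D : Subgroup G} (hDk : p ^ k ≤ Nat.card ↥D) :
    (Nat.card ↥(signalizerDelta p D)).Coprime p := by
  have hne : ∃ d ∈ D, d ≠ (1 : G) := (Subgroup.bot_or_exists_ne_one D).resolve_left fun h => by
    rw [h, Subgroup.card_bot] at hDk
    have := hp.out.two_le
    have := Nat.le_self_pow (by have := hS.pos; omega : k ≠ 0) p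
    omega
  obtain ⟨d, hd, hd1⟩ := hne
  exact (CfsgLib.Components.centralizerPPrimeCore_coprime (p := p) (x := d)).coprime_dvd_left
    (Subgroup.card_dvd_of_le (iInf_le (fun a : {a : G // a ∈ D ∧ a ≠ 1} => centralizerPPrimeCore p (a : G)) ⟨d, hd, hd1⟩))

/-- An invariant subgroup inside some `Δ(D)` is generated by its pieces. -/
theorem le_gen {a : G} {H U D F : Subgroup G} (hUH : U ≤ H) (hAU : A ≤ Subgroup.normalizer (U : Set G))
    (hD : D ≤ A) (hDk : p ^ k ≤ Nat.card ↥D) (hUD : U ≤ signalizerDelta p D) (hF : F ≤ A) (haF : a ∈ F)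
    (hUF : U ≤ Subgroup.centralizer (F : Set G)) : U ≤ gen p A a H := by
  haveI := hS.elem.1
  have hcop : (Nat.card ↥A).Coprime (Nat.card ↥U) := by
    obtain ⟨n, hn⟩ := (show IsPGroup p ↥A from fun x => ⟨1, Subtype.ext (by rw [pow_one]; exact hS.elem.2 x x.2)⟩).exists_card_eq
    rw [hn]
    exact (((coprime_delta hS hDk).coprime_dvd_left (Subgroup.card_dvd_of_le hUD)).symm).pow_left n
  have hne : A ≠ ⊥ := fun h => by
    have := hS.rank
    rw [h, Subgroup.card_bot] at this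
    have := hp.out.two_le
    have := Nat.le_self_pow (by omega : k + 2 ≠ 0) p
    omega
  refine CfsgLib.CoprimeAction.le_of_hyperplane_centralizers_le hne hS.elem.2 hAU hcop fun A0 hA0 hidx => ?_
  have hcard : Nat.card ↥A ≤ p * Nat.card ↥(A0 ⊔ F) := by
    have h := Subgroup.relIndex_mul_relIndex ⊥ A0 A bot_le hA0
    rw [Subgroup.relIndex_bot_left, Subgroup.relIndex_bot_left, hidx] at h
    rw [← h, mul_comm]
    exact Nat.mul_le_mul_left _ (Subgroup.card_le_of_le le_sup_left)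
  refine le_trans ?_ (le_iSup (fun B : Idx p A a => H ⊓ piece p B.1)
    ⟨A0 ⊔ F, sup_le hA0 hF, Subgroup.mem_sup_right haF, hcard⟩)
  intro x hx
  have hxc : x ∈ Subgroup.centralizer ((A0 ⊔ F : Subgroup G) : Set G) := by
    have hle : A0 ⊔ F ≤ Subgroup.centralizer ({x} : Set G) := sup_le
      (fun b hb => Subgroup.mem_centralizer_singleton_iff.2 (Subgroup.mem_centralizer_iff.1 hx.2 b hb))
      (fun b hb => Subgroup.mem_centralizer_singleton_iff.2 (Subgroup.mem_centralizer_iff.1 (hUF hx.1) b hb))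
    exact Subgroup.mem_centralizer_iff.2 fun b hb => Subgroup.mem_centralizer_singleton_iff.1 (hle hb)
  exact ⟨hUH hx.1, delta_le hS hD hDk (sup_le hA0 hF) ⟨hUD hx.1, hxc⟩, hxc⟩

/-- Commutators of two pieces are generated by pieces. -/
theorem commutator_piece_le {a : G} {H1 H2 H3 : Subgroup G} (hn1 : A ≤ Subgroup.normalizer (H1 : Set G))
    (hn2 : A ≤ Subgroup.normalizer (H2 : Set G)) (h3 : ⁅H1, H2⁆ ≤ H3) (A1 A2 : Idx p A a) :
    ⁅H1 ⊓ piece p A1.1, H2 ⊓ piece p A2.1⁆ ≤ gen p A a H3 := by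
  haveI := hS.elem.1
  have hle : ∀ (B : Idx p A a) (X : Subgroup G), A1.1 ⊓ A2.1 ≤ B.1 →
      X ⊓ piece p B.1 ≤ signalizerDelta p (A1.1 ⊓ A2.1) ⊓ Subgroup.centralizer ((A1.1 ⊓ A2.1 : Subgroup G) : Set G) :=
    fun B X h => inf_le_right.trans (inf_le_inf (signalizerDelta_anti h) (Subgroup.centralizer_le h))
  have hc : ⁅H1 ⊓ piece p A1.1, H2 ⊓ piece p A2.1⁆ ≤
      signalizerDelta p (A1.1 ⊓ A2.1) ⊓ Subgroup.centralizer ((A1.1 ⊓ A2.1 : Subgroup G) : Set G) :=
    (Subgroup.commutator_mono (hle A1 H1 inf_le_left) (hle A2 H2 inf_le_right)).trans (Subgroup.commutator_le_self _)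
  exact le_gen hS ((Subgroup.commutator_mono inf_le_left inf_le_left).trans h3)
    (le_normalizer_commutator_two (le_normalizer_inf hn1 (le_normalizer_piece A1.2.1))
      (le_normalizer_inf hn2 (le_normalizer_piece A2.2.1)))
    (inf_le_left.trans A1.2.1) (card_inf hS A1.2.1 A2.2.1 A1.2.2.2 A2.2.2.2) (hc.trans inf_le_left)
    (inf_le_left.trans A1.2.1) (Subgroup.mem_inf.2 ⟨A1.2.2.1, A2.2.2.1⟩) (hc.trans inf_le_right)

/-- The property passes to the derived subgroup. -/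
theorem derived_le_gen {a : G} {H : Subgroup G} (hn : A ≤ Subgroup.normalizer (H : Set G))
    (hH : H ≤ gen p A a H) : ⁅H, H⁆ ≤ gen p A a ⁅H, H⁆ := by
  have hn' := le_normalizer_commutator_two hn hn
  have hHd : ⁅H, H⁆ ≤ H := Subgroup.commutator_le_self H
  -- generators of `H` normalise `gen ⁅H, H⁆`
  have hnorm : H ≤ Subgroup.normalizer (gen p A a ⁅H, H⁆ : Set G) := by
    refine hH.trans (iSup_le fun A2 => ?_)
    rw [Subgroup.le_normalizer_iff]
    intro y hy x hx
    refine Subgroup.iSup_induction (fun B : Idx p A a => ⁅H, H⁆ ⊓ piece p B.1)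
      (C := fun x => y * x * y⁻¹ ∈ gen p A a ⁅H, H⁆) hx ?_ (by simp) ?_
    · intro A1 x hx
      rw [show y * x * y⁻¹ = ⁅y, x⁆ * x by simp [commutatorElement_def]]
      refine Subgroup.mul_mem _ ?_ (le_iSup (fun B : Idx p A a => ⁅H, H⁆ ⊓ piece p B.1) A1 hx)
      exact commutator_piece_le hS hn hn' (Subgroup.commutator_mono le_rfl hHd) A2 A1
        (Subgroup.commutator_mem_commutator hy hx)
    · intro u v hu hv
      rw [show y * (u * v) * y⁻¹ = (y * u * y⁻¹) * (y * v * y⁻¹) by group]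
      exact mul_mem hu hv
  -- commutators of generators
  have step : ∀ (B : Idx p A a), ∀ x ∈ H, ∀ y ∈ H ⊓ piece p B.1, ⁅x, y⁆ ∈ gen p A a ⁅H, H⁆ := by
    intro B x hx y hy
    refine (Subgroup.iSup_induction (fun C : Idx p A a => H ⊓ piece p C.1)
      (C := fun x => x ∈ H ∧ ⁅x, y⁆ ∈ gen p A a ⁅H, H⁆) (hH hx) ?_ ?_ ?_).2
    · intro C x hx
      exact ⟨hx.1, commutator_piece_le hS hn hn le_rfl C B (Subgroup.commutator_mem_commutator hx hy)⟩
    · exact ⟨H.one_mem, by simp [commutatorElement_def]⟩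
    · rintro u v ⟨hu, hu'⟩ ⟨hv, hv'⟩
      refine ⟨H.mul_mem hu hv, ?_⟩
      rw [show ⁅u * v, y⁆ = (u * ⁅v, y⁆ * u⁻¹) * ⁅u, y⁆ by simp only [commutatorElement_def]; group]
      exact mul_mem ((Subgroup.mem_normalizer_iff.1 (hnorm hu) _).1 hv') hu'
  rw [Subgroup.commutator_le]
  intro x hx y hy
  refine (Subgroup.iSup_induction (fun C : Idx p A a => H ⊓ piece p C.1)
    (C := fun y => y ∈ H ∧ ⁅x, y⁆ ∈ gen p A a ⁅H, H⁆) (hH hy) ?_ ?_ ?_).2
  · exact fun C y hy => ⟨hy.1, step C x hx y hy⟩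
  · exact ⟨H.one_mem, by simp [commutatorElement_def]⟩
  · rintro u v ⟨hu, hu'⟩ ⟨hv, hv'⟩
    refine ⟨H.mul_mem hu hv, ?_⟩
    rw [show ⁅x, u * v⁆ = ⁅x, u⁆ * (u * ⁅x, v⁆ * u⁻¹) by simp only [commutatorElement_def]; group]
    exact mul_mem hu' ((Subgroup.mem_normalizer_iff.1 (hnorm hu) _).1 hv')

/-- **Main lemma.** -/
theorem inf_centralizer_le {a : G} {H : Subgroup G} (hsol : Group.IsSolvable ↥H)
    (hcop : (Nat.card ↥H).Coprime p) (hn : A ≤ Subgroup.normalizer (H : Set G)) (hH : H ≤ gen p A a H)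
    {e : G} (he : e ∈ A) :
    H ⊓ Subgroup.centralizer ({e} : Set G) ≤
      ⨆ B : {A0 : Subgroup G // A0 ≤ A ∧ e ∈ A0 ∧ p ^ k ≤ Nat.card ↥A0}, piece p B.1 := by
  classical
  induction hcard : Nat.card ↥H using Nat.strong_induction_on generalizing H with
  | _ n ih =>
  by_cases hH0 : H = ⊥
  · rw [hH0, bot_inf_eq]; exact bot_le
  set W := ⨆ B : {A0 : Subgroup G // A0 ≤ A ∧ e ∈ A0 ∧ p ^ k ≤ Nat.card ↥A0}, piece p B.1 with hW
  have hHd : ⁅H, H⁆ ≤ H := Subgroup.commutator_le_self H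
  have hlt : ⁅H, H⁆ < H := by
    refine lt_of_le_of_ne hHd fun h => ?_
    haveI := hsol
    have : Nontrivial ↥H := (Subgroup.nontrivial_iff_ne_bot H).2 hH0
    have h1 := (Group.IsSolvable.commutator_lt_top_of_nontrivial (G := ↥H)).ne
    apply h1
    apply Subgroup.map_injective H.subtype_injective
    rw [commutator_def, Subgroup.map_commutator, ← MonoidHom.range_eq_map, H.range_subtype, h]
  have hder : ⁅H, H⁆ ⊓ Subgroup.centralizer ({e} : Set G) ≤ W := by
    refine ih (Nat.card ↥(⁅H, H⁆ : Subgroup G)) ?_ ?_ (hcop.coprime_dvd_left (Subgroup.card_dvd_of_le hHd))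
      (le_normalizer_commutator_two hn hn) (derived_le_gen hS hn hH) rfl
    · rw [← hcard]
      exact lt_of_le_of_ne (Subgroup.card_le_of_le hHd) fun h => hlt.ne (Subgroup.eq_of_le_of_card_ge hHd h.ge)
    · haveI := hsol
      exact Group.isSolvable_of_isSolvable_injective (Subgroup.inclusion_injective hHd)
  set T := H ⊓ Subgroup.centralizer ({e} : Set G) ⊓ W with hT
  -- the norm map
  haveI := hS.elem.1
  haveI : Fintype ↥(Subgroup.zpowers e) := Fintype.ofFinite _
  have hZA : Subgroup.zpowers e ≤ A := Subgroup.zpowers_le.2 he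
  let act : ↥(Subgroup.zpowers e) → ↥H ≃* ↥H := fun b => H.normalizerMonoidHom ⟨b, hn (hZA b.2)⟩
  have hact : ∀ b h, ((act b h : ↥H) : G) = (b : G) * (h : G) * (b : G)⁻¹ := fun b h => rfl
  obtain ⟨N, hNdef⟩ : ∃ N : ↥H →* Abelianization ↥H, ∀ h, N h = ∏ b, Abelianization.of (act b h) :=
    ⟨MonoidHom.mk' (fun h => ∏ b, Abelianization.of (act b h)) fun x y => by simp [Finset.prod_mul_distrib], fun h => rfl⟩
  have hNinv : ∀ (c : ↥(Subgroup.zpowers e)) (h : ↥H), N (act c h) = N h := by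
    intro c h
    rw [hNdef, hNdef]
    rw [← Equiv.prod_comp (Equiv.mulRight c) (fun b => Abelianization.of (act b h))]
    refine Finset.prod_congr rfl fun b _ => congrArg _ (Subtype.ext ?_)
    rw [hact, hact, hact]
    show _ = ((b : G) * c) * (h : G) * ((b : G) * c)⁻¹
    group
  have hgen : H ≤ T ⊔ N.ker.map H.subtype := by
    refine hH.trans (iSup_le fun A1 => ?_)
    intro x hx
    have hU : Subgroup.zpowers e ≤ Subgroup.normalizer ((H ⊓ piece p A1.1 : Subgroup G) : Set G) :=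
      hZA.trans (le_normalizer_inf hn (le_normalizer_piece A1.2.1))
    have hcp : (Nat.card ↥(Subgroup.zpowers e)).Coprime (Nat.card ↥(H ⊓ piece p A1.1)) := by
      refine Nat.Coprime.coprime_dvd_left ?_ (hcop.coprime_dvd_left (Subgroup.card_dvd_of_le inf_le_left)).symm
      rw [Nat.card_zpowers]
      exact orderOf_dvd_of_pow_eq_one (hS.elem.2 e he)
    have hsv : Group.IsSolvable ↥(H ⊓ piece p A1.1) :=
      haveI := hsol
      Group.isSolvable_of_isSolvable_injective (Subgroup.inclusion_injective inf_le_left)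
    obtain ⟨m, hm, c, hc, rfl⟩ := CfsgLib.CoprimeAction.exists_commutator_mul_centralizer hU hcp (Or.inr hsv) hx
    refine Subgroup.mul_mem _ (Subgroup.mem_sup_right ?_) (Subgroup.mem_sup_left ?_)
    · refine (Subgroup.commutator_le.2 ?_ : ⁅H ⊓ piece p A1.1, Subgroup.zpowers e⁆ ≤ N.ker.map H.subtype) hm
      intro h hh b hb
      have hh' : h⁻¹ ∈ H := H.inv_mem hh.1
      refine ⟨⟨h, hh.1⟩ * act ⟨b, hb⟩ ⟨h⁻¹, hh'⟩, ?_, ?_⟩
      · rw [SetLike.mem_coe, MonoidHom.mem_ker, map_mul, hNinv, ← map_mul,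
          show (⟨h, hh.1⟩ : ↥H) * ⟨h⁻¹, hh'⟩ = 1 from Subtype.ext (mul_inv_cancel h), map_one]
      · show h * (b * h⁻¹ * b⁻¹) = ⁅h, b⁆
        rw [commutatorElement_def]; group
    · have hce : c ∈ Subgroup.centralizer ({e} : Set G) :=
        Subgroup.centralizer_le (Set.singleton_subset_iff.2 (Subgroup.mem_zpowers e)) hc.2
      refine ⟨⟨hc.1.1, hce⟩, le_iSup (fun B : {A0 : Subgroup G // A0 ≤ A ∧ e ∈ A0 ∧ p ^ k ≤ Nat.card ↥A0} => piece p B.1)
        ⟨A1.1 ⊔ Subgroup.zpowers e, sup_le A1.2.1 hZA, Subgroup.mem_sup_right (Subgroup.mem_zpowers e),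
          (card_large hS A1.2.1 A1.2.2.2).trans (Subgroup.card_le_of_le le_sup_left)⟩ ?_⟩
      have hcc : c ∈ Subgroup.centralizer ((A1.1 ⊔ Subgroup.zpowers e : Subgroup G) : Set G) := by
        have hle : A1.1 ⊔ Subgroup.zpowers e ≤ Subgroup.centralizer ({c} : Set G) := sup_le
          (fun b hb => Subgroup.mem_centralizer_singleton_iff.2 (Subgroup.mem_centralizer_iff.1 hc.1.2.2 b hb))
          (fun b hb => Subgroup.mem_centralizer_singleton_iff.2 (Subgroup.mem_centralizer_iff.1 hc.2 b hb))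
        exact Subgroup.mem_centralizer_iff.2 fun b hb => Subgroup.mem_centralizer_singleton_iff.1 (hle hb)
      exact ⟨delta_le hS A1.2.1 (card_large hS A1.2.1 A1.2.2.2) (sup_le A1.2.1 hZA) ⟨hc.1.2.1, hcc⟩, hcc⟩
  have hkn : H ≤ Subgroup.normalizer (N.ker.map H.subtype : Set G) := by
    rw [Subgroup.le_normalizer_iff]
    rintro g hg _ ⟨z, hz, rfl⟩
    exact ⟨⟨g, hg⟩ * z * ⟨g, hg⟩⁻¹, N.normal_ker.conj_mem z hz _, rfl⟩
  intro x hx
  have hx' : x ∈ ((T ⊔ N.ker.map H.subtype : Subgroup G) : Set G) := hgen hx.1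
  rw [Subgroup.coe_mul_of_left_le_normalizer_right _ _ ((inf_le_left.trans inf_le_left).trans hkn)] at hx'
  obtain ⟨t, ht, _, ⟨z, hz, rfl⟩, rfl⟩ := Set.mem_mul.1 hx'
  refine W.mul_mem ht.2 (hder ⟨?_, ?_⟩)
  swap
  · have h1 := Subgroup.mul_mem _ (Subgroup.inv_mem _ ht.1.2) hx.2
    rwa [inv_mul_cancel_left] at h1
  have hze : e * (z : G) = z * e := by
    have h1 := Subgroup.mul_mem _ (Subgroup.inv_mem _ ht.1.2) hx.2
    rw [inv_mul_cancel_left] at h1
    exact (Subgroup.mem_centralizer_singleton_iff.1 h1).symm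
  have hfix : ∀ b, act b z = z := fun b => Subtype.ext (by
    rw [hact]
    obtain ⟨i, hi⟩ := Subgroup.mem_zpowers_iff.1 b.2
    rw [← hi, ((show Commute e (z : G) from hze).zpow_left i).eq, mul_inv_cancel_right])
  have hN : N z = Abelianization.of z ^ Fintype.card ↥(Subgroup.zpowers e) := by
    rw [hNdef]
    simp [hfix]
  rw [MonoidHom.mem_ker.1 hz] at hN
  have h1 : (Abelianization.of z) ^ Nat.card ↥H = 1 := by
    rw [← map_pow, pow_card_eq_one', map_one]
  have h2 : Abelianization.of z = 1 := by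
    have h := pow_gcd_eq_one.2 ⟨hN.symm, h1⟩
    rwa [← Nat.card_eq_fintype_card, Nat.card_zpowers, Nat.Coprime.gcd_eq_one, pow_one] at h
    exact (hcop.coprime_dvd_right (orderOf_dvd_of_pow_eq_one (hS.elem.2 e he))).symm
  have h3 : z ∈ commutator ↥H := by
    rw [← Abelianization.ker_of, MonoidHom.mem_ker]; exact h2
  have h4 := Subgroup.mem_map_of_mem H.subtype h3
  rwa [commutator_def, Subgroup.map_commutator, ← MonoidHom.range_eq_map, H.range_subtype] at h4

end CfsgLib.KBalance
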